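import Cfsg.Agent.ConwayFacts.AutCo1
import Cfsg.Agent.H658.TwoB.Two

/-!
# `HFour` : vectors of type 4 orthogonal to `q` and not to `v` (helper494; CNT of 2.B, S2491/S2492)
-/

set_option autoImplicit false

namespace Cfsg.Agent.H494.TwoB

open Cfsg.Agent.MonsterU.Lam2 (L2 cl bf IsType type_cases qf qf_add bf_comm bf_cl_eq_zero
  bf_self bf_add_left bf_add_right bf_zero_left bf_zero_right add_self bf_nondeg card_L2 qf_cl_eq_zero neg_eq)

theorem one_of_ne : ∀ a : ZMod 2, a ≠ 0 → a = 1 := by decide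

theorem qf_type_two {x : L2} (h : IsType 2 x) : qf x = 0 := by
  obtain ⟨w, hw, rfl⟩ := h
  rw [qf_cl_eq_zero, hw]
  norm_num

theorem qf_type_three {x : L2} (h : IsType 3 x) : qf x = 1 := by
  obtain ⟨w, hw, rfl⟩ := h
  have h1 : qf (cl w) ≠ 0 := by
    rw [ne_eq, qf_cl_eq_zero, hw]
    norm_num
  exact one_of_ne _ h1

theorem exists_one {x : L2} (hx : x ≠ 0) : ∃ y, bf y x = 1 := by
  by_contra hc
  push Not at hc
  apply hx
  apply bf_nondeg
  intro y
  by_contra h
  exact hc y (by rw [bf_comm]; exact one_of_ne _ h)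

/-- the two functionals -/
noncomputable def phi (v q : L2) : L2 →+ ZMod 2 × ZMod 2 where
  toFun x := (bf x v, bf x q)
  map_zero' := by rw [bf_zero_left, bf_zero_left]; rfl
  map_add' x y := by rw [bf_add_left, bf_add_left]; rfl

/-- a vector with values `(1, 0)` -/
theorem exists_base {v q : L2} (hv : v ≠ 0) (hvq : q ≠ v) : ∃ s : L2, bf s v = 1 ∧ bf s q = 0 := by
  obtain ⟨a, ha⟩ := exists_one hv
  have hs : q + v ≠ 0 := fun h => hvq (by
    have h1 : q + v + v = v := by rw [h, zero_add]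
    rwa [add_assoc, add_self, add_zero] at h1)
  obtain ⟨b, hb⟩ := exists_one hs
  rw [bf_add_right] at hb
  have key : ∀ x y z : ZMod 2, x + y = 1 → (y = 1 ∧ x = 0) ∨ ((z = 0) ∨ (1 + y = 1 ∧ z + x = 0)) := by decide
  rcases key _ _ (bf a q) hb with h | h | h
  · exact ⟨b, h.1, h.2⟩
  · exact ⟨a, ha, h⟩
  · exact ⟨a + b, by rw [bf_add_left, ha, h.1], by rw [bf_add_left, h.2]⟩

theorem mem_ker {v q k : L2} : k ∈ (phi v q).ker ↔ bf k v = 0 ∧ bf k q = 0 := by
  rw [AddMonoidHom.mem_ker]
  show (bf k v, bf k q) = (0, 0) ↔ _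
  rw [Prod.mk.injEq]

theorem card_ker (v q : L2) : 2 ^ 22 ≤ Nat.card (phi v q).ker := by
  have h1 : Nat.card L2 = Nat.card (phi v q).ker * Nat.card (phi v q).range := by
    rw [AddSubgroup.card_eq_card_quotient_mul_card_addSubgroup (phi v q).ker, mul_comm,
      Nat.card_congr (QuotientAddGroup.quotientKerEquivRange (phi v q)).toEquiv]
  have h2 : Nat.card (phi v q).range ≤ 4 := by
    have h3 : Nat.card (ZMod 2 × ZMod 2) = 4 := by rw [Nat.card_prod, Nat.card_zmod]
    rw [← h3]
    exact Nat.card_le_card_of_injective _ Subtype.val_injective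
  rw [card_L2] at h1
  by_contra hc
  push Not at hc
  have h4 : Nat.card (phi v q).ker * Nat.card (phi v q).range ≤ (2 ^ 22 - 1) * 4 :=
    Nat.mul_le_mul (by omega) h2
  omega

/-- **CNT** -/
theorem hFour : Cfsg.Agent.H658.TwoB.HFour := by
  intro v q hv hq hqv hbq
  by_contra hc
  push Not at hc
  have hv0 : v ≠ 0 := Cfsg.Agent.ConwayFacts.NormL2.ne_zero_of_type (Or.inl rfl) hv
  obtain ⟨s, hs1, hs2⟩ := exists_base hv0 hqv
  -- every vector with values `(1, 0)` and `qf = 0` has type 2
  have key : ∀ x : L2, bf x v = 1 → bf x q = 0 → qf x = 0 → IsType 2 x := by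
    intro x h1 h2 h3
    rcases type_cases x with rfl | h | h | h
    · rw [bf_zero_left] at h1
      exact absurd h1 zero_ne_one
    · exact h
    · rw [qf_type_three h] at h3
      exact absurd h3 one_ne_zero
    · exact absurd h2 (hc x h h1)
  have hT : Nat.card {x : L2 // IsType 2 x} = 98280 := by
    have h := Cfsg.Agent.ConwayFacts.NormL2.ncard_two
    rw [← Nat.card_coe_set_eq] at h
    exact h
  have hfT : Finite {x : L2 // IsType 2 x} := Nat.finite_of_card_ne_zero (by rw [hT]; norm_num)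
  have hvq : bf v q = 0 := by rw [bf_comm]; exact hbq
  have hf : ∀ k : (phi v q).ker, ∃ y : {x : L2 // IsType 2 x} × Bool,
      (y.2 = true → (y.1 : L2) = (k : L2) + s) ∧ (y.2 = false → (y.1 : L2) = (k : L2) + s + v) := by
    intro k
    obtain ⟨h1, h2⟩ := mem_ker.1 k.2
    have h3 : bf ((k : L2) + s) v = 1 := by rw [bf_add_left, h1, hs1, zero_add]
    have h4 : bf ((k : L2) + s) q = 0 := by rw [bf_add_left, h2, hs2, zero_add]
    by_cases h5 : qf ((k : L2) + s) = 0
    · exact ⟨(⟨_, key _ h3 h4 h5⟩, true), fun _ => rfl, fun h => Bool.noConfusion h⟩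
    · refine ⟨(⟨(k : L2) + s + v, key _ ?_ ?_ ?_⟩, false), fun h => Bool.noConfusion h, fun _ => rfl⟩
      · rw [bf_add_left, h3, bf_self, add_zero]
      · rw [bf_add_left, h4, hvq, add_zero]
      · rw [qf_add, one_of_ne _ h5, qf_type_two hv, h3]
        rfl
  choose f hf using hf
  have hinj : Function.Injective f := by
    intro k l h
    apply Subtype.ext
    cases hb : (f k).2
    · have h1 := (hf k).2 hb
      have h2 := (hf l).2 (by rw [← h]; exact hb)
      rw [← h, h1] at h2
      exact add_right_cancel (add_right_cancel h2)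
    · have h1 := (hf k).1 hb
      have h2 := (hf l).1 (by rw [← h]; exact hb)
      rw [← h, h1] at h2
      exact add_right_cancel h2
  have h1 := Nat.card_le_card_of_injective f hinj
  rw [Nat.card_prod, hT, Nat.card_eq_fintype_card (α := Bool), Fintype.card_bool] at h1
  have h2 := card_ker v q
  omega

end Cfsg.Agent.H494.TwoB
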